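import Cfsg.Agent.Lib.Helper5.SUAsch.Defs2
import Cfsg.Agent.Lib.Helper78.SURows.Arith
import Cfsg.Agent.Lib.Helper72.SURows.A6
import Cfsg.Agent.Lib.Helper72.SURows.A11
import Cfsg.Agent.Lib.Helper47.SURows.D1e

/-!
# Common lemmas for the small unitary rows (helper84 for helper13's farm)
-/

set_option autoImplicit false

namespace Cfsg.Agent.Lib.Helper84.SUSmall

open Cfsg Cfsg.Geo Matrix Cfsg.Agent.Lib.Helper5.SUAsch
open Cfsg.Agent.Lib.Helper72.SURows Cfsg.Agent.Lib.Helper78.SURows Cfsg.Agent.Lib.Helper47.SURows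
open scoped Kronecker MatrixGroups

theorem eq_of_le_subfield {F : Type*} [Field F] [Fintype F] {n q : ℕ}
    (hF : Fintype.card F = q ^ 2) (hn : 4 ≤ n) {H : Subgroup (GL (Fin n) F)}
    (hH : IsMaximalIn (SUg n F q) H) (F₀ : Subfield F) (P : GL (Fin n) F)
    (hc : Fintype.card F = Nat.card F₀ ^ 2) (hle : H ≤ subfieldSubgroup F₀ P) :
    H = subfieldSubgroup F₀ P ⊓ SUg n F q := by
  have hF₀ : F₀ ≠ ⊤ := by
    rintro rfl
    have h1 : Nat.card (⊤ : Subfield F) = Fintype.card F := by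
      rw [← Nat.card_eq_fintype_card]
      exact Nat.card_congr (Subfield.topEquiv (K := F)).toEquiv
    rw [h1] at hc
    have h2 : 1 < Fintype.card F := Fintype.one_lt_card
    nlinarith
  rcases hH.2 (subfieldSubgroup F₀ P ⊓ SUg n F q) (le_inf hle hH.1.le) inf_le_right with h | h
  · exact h.symm
  · exact absurd (h ▸ inf_le_left) (su_not_le_subfield hF hn F₀ hF₀ P)

theorem ar5 {p e' q : ℕ} (hp : p.Prime) (he' : 0 < e') (hq : q = p ^ e')
    (hd : 5 ∣ p ^ (2 * e') - 1) (hmin : ∀ d : ℕ, 0 < d → 5 ∣ p ^ d - 1 → 2 * e' ≤ d) :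
    (q = p ∧ p % 5 = 4) ∨ (q = p ^ 2 ∧ (p % 5 = 2 ∨ p % 5 = 3)) := by
  simp only [dvd_pow_sub_one_iff (z := 5) (by norm_num) hp.pos] at hd hmin
  have hm : p % 5 < 5 := Nat.mod_lt _ (by norm_num)
  generalize p % 5 = m at *
  interval_cases m
  · rw [zero_pow (by omega)] at hd; norm_num at hd
  · have := hmin 1 (by norm_num) (by norm_num); omega
  · have := hmin 4 (by norm_num) (by norm_num)
    have h1 : e' ≤ 2 := by omega
    interval_cases e'
    · norm_num at hd
    · exact Or.inr ⟨hq, Or.inl rfl⟩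
  · have := hmin 4 (by norm_num) (by norm_num)
    have h1 : e' ≤ 2 := by omega
    interval_cases e'
    · norm_num at hd
    · exact Or.inr ⟨hq, Or.inr rfl⟩
  · have := hmin 2 (by norm_num) (by norm_num)
    have h1 : e' = 1 := by omega
    subst h1
    exact Or.inl ⟨by rw [hq, pow_one], rfl⟩

end Cfsg.Agent.Lib.Helper84.SUSmall
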