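import Cfsg.Agent.Lib.Helper5.SUAsch.Defs2
import Cfsg.Agent.Lib.Helper78.SURows.Arith
import Cfsg.Agent.Lib.Helper72.SURows.A6
import Cfsg.Agent.Lib.Helper72.SURows.A11
import Cfsg.Agent.Lib.Helper47.SURows.D1e
import Cfsg.Agent.Lib.Helper84.SUSmall.Common
/-!
# The rows `SU_4(q)`: from `URef` to the printed list (helper84 for helper13's farm)
-/

set_option autoImplicit false

namespace Cfsg.Agent.Lib.Helper84.SUSmall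

open Cfsg Cfsg.Geo Matrix Cfsg.Agent.Lib.Helper5.SUAsch
open Cfsg.Agent.Lib.Helper72.SURows Cfsg.Agent.Lib.Helper78.SURows Cfsg.Agent.Lib.Helper47.SURows
open scoped Kronecker MatrixGroups

theorem row4_of {F : Type*} [Field F] [Fintype F] (q : ℕ) (hF : Fintype.card F = q ^ 2) (H : Subgroup (Matrix.GeneralLinearGroup (Fin 4) F)) (hH : Cfsg.Geo.IsMaximalIn (Cfsg.GU 4 F q ⊓ Cfsg.Geo.specialLinear (Fin 4) F) H) (h : URef 4 q H)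
    (hE4a : ∀ (_ : Fintype.card F = 3 ^ 2) (D : Fin 4 → Submodule F (Fin 4 → F))
      (_ : IsNondegenerateMDecomposition (hermForm 4 F 3) 1 D),
      ¬ IsMaximalIn (SUg 4 F 3) (decompositionStabilizer D ⊓ SUg 4 F 3))
    (hE4c : ∀ (_ : q ≤ 3) (D : Fin 2 → Submodule F (Fin 4 → F)) (_ : IsMDecomposition 2 D)
      (_ : ∀ i, IsTotallySingularFor (hermForm 4 F q) (D i)),
      ∃ (F₀ : Subfield F) (P : GL (Fin 4) F) (ζ : F), Fintype.card F = Nat.card F₀ ^ 2 ∧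
        ζ ≠ 0 ∧ ζ + ζ ^ q = 0 ∧ IsFormRationalStructure (hermForm 4 F q) F₀ ζ P ∧
        (∀ u : Fin 4 → F, (∀ i, u i ∈ F₀) →
          hermForm 4 F q ((P : Matrix (Fin 4) (Fin 4) F) *ᵥ u)
            ((P : Matrix (Fin 4) (Fin 4) F) *ᵥ u) = 0) ∧
        decompositionStabilizer D ⊓ SUg 4 F q ≤ subfieldSubgroup F₀ P) :
    (∃ W : Submodule F (Fin 4 → F), W ≠ ⊥ ∧ Cfsg.Geo.IsTotallySingularFor (Cfsg.hermForm 4 F q) W ∧ H = Cfsg.Geo.subspaceStabilizer W ⊓ (Cfsg.GU 4 F q ⊓ Cfsg.Geo.specialLinear (Fin 4) F)) ∨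
    (∃ W : Submodule F (Fin 4 → F), W ≠ ⊥ ∧ Cfsg.Geo.IsNondegenerateOn (Cfsg.hermForm 4 F q) W ∧ 2 * Module.finrank F W < 4 ∧ H = Cfsg.Geo.subspaceStabilizer W ⊓ (Cfsg.GU 4 F q ⊓ Cfsg.Geo.specialLinear (Fin 4) F)) ∨
    (q ≠ 3 ∧ ∃ D : Fin 4 → Submodule F (Fin 4 → F), Cfsg.Geo.IsNondegenerateMDecomposition (Cfsg.hermForm 4 F q) 1 D ∧ H = Cfsg.Geo.decompositionStabilizer D ⊓ (Cfsg.GU 4 F q ⊓ Cfsg.Geo.specialLinear (Fin 4) F)) ∨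
    (3 ≤ q ∧ ∃ D : Fin 2 → Submodule F (Fin 4 → F), Cfsg.Geo.IsNondegenerateMDecomposition (Cfsg.hermForm 4 F q) 2 D ∧ H = Cfsg.Geo.decompositionStabilizer D ⊓ (Cfsg.GU 4 F q ⊓ Cfsg.Geo.specialLinear (Fin 4) F)) ∨
    (4 ≤ q ∧ ∃ D : Fin 2 → Submodule F (Fin 4 → F), Cfsg.Geo.IsMDecomposition 2 D ∧ (∀ i, Cfsg.Geo.IsTotallySingularFor (Cfsg.hermForm 4 F q) (D i)) ∧ H = Cfsg.Geo.decompositionStabilizer D ⊓ (Cfsg.GU 4 F q ⊓ Cfsg.Geo.specialLinear (Fin 4) F)) ∨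
    (∃ (F₀ : Subfield F) (r : ℕ) (P : Matrix.GeneralLinearGroup (Fin 4) F), r.Prime ∧ Odd r ∧ Fintype.card F = Nat.card F₀ ^ r ∧ Cfsg.Geo.IsFormRationalStructure (Cfsg.hermForm 4 F q) F₀ 1 P ∧ H = Cfsg.Geo.subfieldSubgroup F₀ P ⊓ (Cfsg.GU 4 F q ⊓ Cfsg.Geo.specialLinear (Fin 4) F)) ∨
    (∃ (F₀ : Subfield F) (P : Matrix.GeneralLinearGroup (Fin 4) F) (ζ : F), Fintype.card F = Nat.card F₀ ^ 2 ∧ ζ ≠ 0 ∧ ζ + ζ ^ q = 0 ∧ Cfsg.Geo.IsFormRationalStructure (Cfsg.hermForm 4 F q) F₀ ζ P ∧ (∀ u : Fin 4 → F, (∀ i, u i ∈ F₀) → (Cfsg.hermForm 4 F q) (Matrix.mulVec (P : Matrix (Fin 4) (Fin 4) F) u) (Matrix.mulVec (P : Matrix (Fin 4) (Fin 4) F) u) = 0) ∧ H = Cfsg.Geo.subfieldSubgroup F₀ P ⊓ (Cfsg.GU 4 F q ⊓ Cfsg.Geo.specialLinear (Fin 4) F)) ∨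
    (Odd q ∧ ∃ (F₀ : Subfield F) (P : Matrix.GeneralLinearGroup (Fin 4) F), Fintype.card F = Nat.card F₀ ^ 2 ∧ Cfsg.Geo.IsFormRationalStructure (Cfsg.hermForm 4 F q) F₀ 1 P ∧ H = Cfsg.Geo.subfieldSubgroup F₀ P ⊓ (Cfsg.GU 4 F q ⊓ Cfsg.Geo.specialLinear (Fin 4) F)) ∨
    (∃ (p : ℕ) (R : Subgroup (Matrix.GeneralLinearGroup (Fin 4) F)), p.Prime ∧ q = p ∧ p % 4 = 3 ∧ Cfsg.Geo.IsSymplecticTypeGroup 2 R ∧ Cfsg.Geo.ActsAbsolutelyIrreducibly (Cfsg.Geo.matrixSet R) ∧ R ≤ Cfsg.Geo.similarityGroup (Cfsg.hermForm 4 F q) ∧ Nat.card R = 64 ∧ Nat.card (Subgroup.center R) = 4 ∧ H = Cfsg.Geo.subgroupNormalizer R ⊓ (Cfsg.GU 4 F q ⊓ Cfsg.Geo.specialLinear (Fin 4) F)) ∨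
    Cfsg.Geo.InUnitaryResidualClass H := by
  rcases h with ⟨W, h0, h1, h⟩ | ⟨W, h0, h1, h2, h⟩ | ⟨t, k, D, hD, htk, hk2, h⟩ |
    ⟨k, D, hk, hD, hs, h⟩ | ⟨F₀, r, P, hr, ho, hc, hf, h⟩ | ⟨F₀, P, ho, hc, hf, h⟩ |
    ⟨F₀, P, ζ, he, hc, h0, h1, hf, ha, h⟩ | ⟨r, R, p, e, k, h1, h2, h3, h4, h5, h6, h7, h⟩ |
    ⟨r, K, hr, ho, hd, hK, ha, h⟩ | ⟨a, b, e, P, f₁, f₂, ha, hb, hab, hq2, h1, h2, h3, h⟩ |
    ⟨k, t, e, P, f₁, hk, ht, hn, hx, h1, h2, h3, h4⟩ | h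
  · exact Or.inl ⟨W, h0, h1, h⟩
  · exact Or.inr (Or.inl ⟨W, h0, h1, h2, h⟩)
  · have ht2 := hD.decomp.two_le
    have hkpos := hD.decomp.pos
    have htn : t ≤ 4 := by nlinarith
    interval_cases t
    · obtain rfl : k = 2 := by omega
      exact Or.inr (Or.inr (Or.inr (Or.inl ⟨hk2 rfl, D, hD, h⟩)))
    · omega
    · obtain rfl : k = 1 := by omega
      refine Or.inr (Or.inr (Or.inl ⟨?_, D, hD, h⟩))
      rintro rfl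
      exact hE4a hF D hD (h ▸ hH)
  · obtain rfl : k = 2 := by omega
    by_cases hq4 : 4 ≤ q
    · exact Or.inr (Or.inr (Or.inr (Or.inr (Or.inl ⟨hq4, D, hD, hs, h⟩))))
    · obtain ⟨F₀, P, ζ, hc, h0, h1, hf, ha, hle⟩ := hE4c (by omega) D hD hs
      exact Or.inr (Or.inr (Or.inr (Or.inr (Or.inr (Or.inr (Or.inl ⟨F₀, P, ζ, hc, h0, h1, hf, ha, eq_of_le_subfield hF le_rfl hH F₀ P hc (h ▸ hle)⟩))))))
  · exact Or.inr (Or.inr (Or.inr (Or.inr (Or.inr (Or.inl ⟨F₀, r, P, hr, ho, hc, hf, h⟩)))))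
  · exact Or.inr (Or.inr (Or.inr (Or.inr (Or.inr (Or.inr (Or.inr (Or.inl ⟨ho, F₀, P, hc, hf, h⟩)))))))
  · exact Or.inr (Or.inr (Or.inr (Or.inr (Or.inr (Or.inr (Or.inl ⟨F₀, P, ζ, hc, h0, h1, hf, ha, h⟩))))))
  · rcases prime_pow_cases h1.prime (by norm_num) (by norm_num) h7 with ⟨-, h⟩ | h | h | h
    · subst h; exact absurd h1.prime (by norm_num)
    · obtain ⟨-, rfl, rfl⟩ := h
      rcases h6 with ⟨h, -⟩ | ⟨-, -, hz, hR⟩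
      · exact absurd h (by decide)
      · rw [hz] at h5
        obtain ⟨hp, hch, e', rfl, he', hq, hdv, hnd, hmin⟩ := arith6 hF h5
        obtain ⟨hqp, hp4⟩ := ar4 hp he' hq hdv hmin
        exact Or.inr (Or.inr (Or.inr (Or.inr (Or.inr (Or.inr (Or.inr (Or.inr (Or.inl ⟨p, R, hp, hqp, hp4, h1, h2, h3, by rw [hR]; norm_num, hz, h⟩))))))))
    · omega
    · omega
  · exfalso
    have hle : r ≤ 4 := Nat.le_of_dvd (by norm_num) hd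
    have h2 := hr.two_le
    interval_cases r <;> first | (revert hd; decide) | (revert ho; decide) | (revert hr; decide)
  · have han : a ≤ 4 := by nlinarith
    interval_cases a
    · omega
    · omega
    · omega
  · have := pow_le_twelve hk ht (by norm_num) hn
    omega
  · exact Or.inr (Or.inr (Or.inr (Or.inr (Or.inr (Or.inr (Or.inr (Or.inr (Or.inr (h)))))))))

end Cfsg.Agent.Lib.Helper84.SUSmall
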